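import Cfsg.Agent.H417.GU.Shift
import Cfsg.Agent.H623.GU.Split

/-!
# S4537, (R6), (R7): forms for the section values and for translations inside the group (helper417)

* `evR_filter` : (R7) with `Finsupp.filter`;
* `evR_val` : (R6), (R7) in the shape of `H623.GU.types_split`;
* `evR_shift'`, `evR_translate` : (R6) for a variable exponent, and for `z ^ Q = z`.
-/

set_option autoImplicit false
set_option linter.unusedSectionVars false

open scoped ComplexConjugate TensorProduct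
open Cfsg Cfsg.Agent.H531.GU Cfsg.Agent.H577.GLB.Std Cfsg.Agent.H421.GU
open Cfsg.Agent.H615.GU hiding lft
open Cfsg.Agent.H577.GLB.Real (coP PhiF PGen)
open Cfsg.Agent.H623.GU (ZOrb)

namespace Cfsg.Agent.H417.GU

section

variable {K : Type*} [Field K] [Finite K] {Q : ℤ} {M : ℕ} {p a f : ℕ} {z : Kˣ} (θ : K →*₀ ℂ)

open Classical in
theorem jn_filter {I : Type*} (J : I → Prop) (lam : Ty I) : Jn lam (lam.filter J) (lam.filter fun o => ¬ J o) := by
  intro o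
  by_cases ho : J o
  · exact Or.inl ⟨(Finsupp.filter_apply_pos J lam ho).symm,
      Finsupp.filter_apply_neg (fun o => ¬ J o) lam (not_not.2 ho)⟩
  · exact Or.inr ⟨(Finsupp.filter_apply_pos (fun o => ¬ J o) lam ho).symm, Finsupp.filter_apply_neg J lam ho⟩

open Classical in
/-- **(R7)** with filters -/
theorem evR_filter (h2 : I2S) (x : RS M) (J : Orb K Q → Prop) (lam : Ty (Orb K Q)) :
    evR θ Q M x lam = LinearMap.mul' ℂ ℂ (TensorProduct.map (evL θ Q M (lam.filter J))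
      (evL θ Q M (lam.filter fun o => ¬ J o)) (coP M x)) :=
  evR_join θ Q M (evR_X_mul θ Q M h2) x (jn_filter J lam)

variable [NeZero M]

open Classical in
theorem sh_filter {lam : Ty (Orb K Q)} {mu₁ : Ty (Orb K (Q ^ f))}
    (h1 : ∀ y : Kˣ, (orderOf y).Coprime p →
      lam.filter (ZOrb K Q p z) (Quotient.mk (orbSetoid K Q) (z * y)) = mu₁ (Quotient.mk (orbSetoid K (Q ^ f)) y))
    (hmu : PregT (Q ^ f) p mu₁) : Sh p z f (lam.filter (ZOrb K Q p z)) mu₁ := by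
  refine ⟨hmu, h1, fun x hx => ?_⟩
  by_contra h4
  refine hx (Finsupp.filter_apply_neg _ lam fun h5 => h4 ?_)
  obtain ⟨y, hy, hxy⟩ := h5
  exact ⟨y, hy, hxy⟩

open Classical in
/-- **(R6), (R7)** in the shape of `H623.GU.types_split` -/
theorem evR_val {N : ℕ} (h2 : I2S) (ctx : CtxQ θ Q M N) (hz : z ^ (p ^ a) = 1)
    (hf : ∀ j : ℕ, z ^ (Q ^ j) = z ↔ f ∣ j) (hf0 : 0 < f) {x : RS M} (hx : x ∈ PGen Q M p)
    {lam mu₂ : Ty (Orb K Q)} {mu₁ : Ty (Orb K (Q ^ f))} (e₂ : lam.filter (fun o => ¬ ZOrb K Q p z o) = mu₂)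
    (e₁ : ∀ y : Kˣ, (orderOf y).Coprime p →
      lam.filter (ZOrb K Q p z) (Quotient.mk (orbSetoid K Q) (z * y)) = mu₁ (Quotient.mk (orbSetoid K (Q ^ f)) y))
    (hmu : PregT (Q ^ f) p mu₁) :
    evR θ Q M x lam = LinearMap.mul' ℂ ℂ (TensorProduct.map
      ((LinearMap.proj mu₁ ∘ₗ evR θ (Q ^ f) M) ∘ₗ (PhiF Q M f).toLinearMap) (LinearMap.proj mu₂ ∘ₗ evR θ Q M)
      (coP M x)) := by
  subst e₂
  exact evR_section θ h2 ctx.card ctx.unit hz hf hf0 hx (jn_filter _ lam) (sh_filter e₁ hmu)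

/-- **(R6)** with a variable exponent -/
theorem evR_shift' {Q' : ℤ} (hQ' : Q' = Q ^ f) (h2 : I2S) (hM : Nat.card Kˣ = M) (hQ : IsUnit (Q : ZMod M))
    (hz : z ^ (p ^ a) = 1) (hf : ∀ j : ℕ, z ^ (Q ^ j) = z ↔ f ∣ j) (hf0 : 0 < f) {x : RS M} (hx : x ∈ PGen Q M p)
    {lam : Ty (Orb K Q)} {mu : Ty (Orb K Q')}
    (pr : ∀ y : Kˣ, mu (Quotient.mk (orbSetoid K Q') y) ≠ 0 → (orderOf y).Coprime p)
    (eq : ∀ y : Kˣ, (orderOf y).Coprime p →
      lam (Quotient.mk (orbSetoid K Q) (z * y)) = mu (Quotient.mk (orbSetoid K Q') y))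
    (zero : ∀ x : Kˣ, lam (Quotient.mk (orbSetoid K Q) x) ≠ 0 → ∃ y : Kˣ, (orderOf y).Coprime p ∧
      Quotient.mk (orbSetoid K Q) x = Quotient.mk (orbSetoid K Q) (z * y)) :
    evR θ Q M x lam = evR θ Q' M (PhiF Q M f x) mu := by
  subst hQ'
  exact evR_shift θ h2 hM hQ hz hf hf0 hx ⟨pr, eq, zero⟩

theorem PhiF_one {x : RS M} (hQ : IsUnit (Q : ZMod M)) (hx : x ∈ PGen Q M p) : PhiF Q M 1 x = x := by
  classical
  induction hx using Algebra.adjoin_induction with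
  | mem x hx =>
    obtain ⟨k, c, hPR, rfl⟩ := hx
    by_cases hkc : 0 < k ∧ TorZ Q M k c
    · have e1 : rv Q M k c = MvPolynomial.X (k, canon Q M c) := if_pos hkc
      rw [e1, PhiF, MvPolynomial.aeval_X]
      show (if 1 ∣ k then ∑ j ∈ Finset.range 1, rv (Q ^ 1) M (k / 1) ((Q : ZMod M) ^ j * canon Q M c) else 0) = _
      rw [if_pos (one_dvd k), Finset.sum_range_one, pow_zero, one_mul, pow_one, Nat.div_one]
      have e2 : rv Q M k (canon Q M c) = MvPolynomial.X (k, canon Q M (canon Q M c)) :=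
        if_pos ⟨hkc.1, torZ_canon hkc.2⟩
      rw [e2, H614.GLn.RSt.canon_canon hQ]
    · have e1 : rv Q M k c = 0 := if_neg hkc
      rw [e1, map_zero]
  | algebraMap r => rw [AlgHom.commutes]
  | add x y _ _ hx hy => rw [map_add, hx, hy]
  | mul x y _ _ hx hy => rw [map_mul, hx, hy]

/-- **(R6)** for a `p`-element `z` of `T_1` -/
theorem evR_translate (h2 : I2S) (hM : Nat.card Kˣ = M) (hQ : IsUnit (Q : ZMod M)) (hz : z ^ (p ^ a) = 1)
    (hzQ : z ^ Q = z) {x : RS M} (hx : x ∈ PGen Q M p) {lam nu : Ty (Orb K Q)}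
    (hlam : ∀ o, lam o ≠ 0 → ∃ y : Kˣ, (orderOf y).Coprime p ∧ o = Quotient.mk (orbSetoid K Q) y)
    (hnu : ∀ y : Kˣ, nu (Quotient.mk (orbSetoid K Q) (z * y)) = lam (Quotient.mk (orbSetoid K Q) y)) :
    evR θ Q M x nu = evR θ Q M x lam := by
  have hz' : ∀ j : ℕ, z ^ (Q ^ j) = z := by
    intro j
    induction j with
    | zero => rw [pow_zero, zpow_one]
    | succ j ih => rw [pow_succ, zpow_mul, ih, hzQ]
  have h3 := evR_shift' θ (f := 1) (Q' := Q) (pow_one Q).symm h2 hM hQ hz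
    (fun j => ⟨fun _ => one_dvd j, fun _ => hz' j⟩) one_pos hx (lam := nu) (mu := lam) ?_ (fun y _ => hnu y) ?_
  · rwa [PhiF_one hQ hx] at h3
  · intro y hy
    obtain ⟨y', hy', h4⟩ := hlam _ hy
    exact pr_of_mk hM hQ h4 hy'
  · intro x hx
    have h4 := hnu (z⁻¹ * x)
    rw [mul_inv_cancel_left] at h4
    rw [h4] at hx
    obtain ⟨y', hy', h5⟩ := hlam _ hx
    exact ⟨z⁻¹ * x, pr_of_mk hM hQ h5 hy', by rw [mul_inv_cancel_left]⟩

end

end Cfsg.Agent.H417.GU
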